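import Cfsg.Agent.Lib.Der.Q3a
import Cfsg.Agent.Lib.Cop.S1V

/-! Step 1: the properties of the module `V` when no invariant quadratic group contains a small involution. -/

set_option autoImplicit false

open Subgroup Cfsg CfsgLib.LAE CfsgLib.ZN CfsgLib.MinS CfsgLib.Cop CfsgLib.CNil Module
open scoped commutatorElement

universe u

namespace CfsgLib.Der

variable {X : Type u} [Group X]

/-- No invariant quadratic group contains a small involution. -/
def NoSm (A G : Subgroup X) : Prop :=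
  ∀ (H E Z B : Subgroup X) (V : Type u) [AddCommGroup V] [Module (ZMod 2) V] [Finite V]
    (s : Sec (H ⊔ A) E Z V) (F : Subgroup (GLv V)), H ≤ G → E ≤ G →
    A ≤ normalizer (H : Set X) → F ≤ s.im H → s.im A ≤ normalizer (F : Set (GLv V)) →
    B ≤ H → A ≤ normalizer (B : Set X) → QH F (s.im B) →
    s.im B ⊓ centralizer (F : Set (GLv V)) = ⊥ → ∀ t, ¬ Sm (s.im B) t

variable [Finite X] {A G S H E Z : Subgroup X}

/-- The strict inequality inside an invariant quadratic subgroup `B'`. -/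
theorem NoSm.q3 (n : NoSm A G) (ho : NoOm A G) (h : Sx A H E Z) (hH : H ≤ G) (hE : E ≤ G)
    (hs : Group.IsSolvable H) {B B' B₀ E₀ : Subgroup X} (hB : B ≤ B') (hB' : B' ≤ H)
    (hA : A ≤ normalizer (B' : Set X)) (hq : ⁅B', ⁅B', E⁆⁆ ≤ Z) (hsq : ∀ b ∈ B, b * b = 1)
    (hn : ¬ B ≤ cz E Z)
    (h0 : B ⊓ cz E Z ≤ B₀) (hZ : Z ≤ E₀) (hE₀ : E₀ ≤ E) (hc : ⁅B, E₀⁆ ≤ Z) :
    B₀.relIndex B ^ 2 < E₀.relIndex E := by
  obtain ⟨V, _, _, _, ⟨s⟩⟩ := exists_sec h.supE h.supZ h.le h.nZ h.sq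
  have hs0 : Group.IsSolvable (s.im H) := by
    rw [← im_secRes s le_sup_left le_rfl]; exact Core.isSolvable_map _ _
  obtain ⟨F, f1, f3, f4, f5, f6⟩ := M1.exists_fit' hs0 (h.red V s)
  have hF : Red (s.im H) F := ⟨f1, le_normalizer.trans f3, f4, f5, f6⟩
  have AF := (s.im_le_normalizer h.AH).trans f3
  have hO := ho H E Z V s F hH hE h.AH f1 AF f4 f5
  obtain ⟨k, a, d, t, h1, h2⟩ := h.td s hF (hB.trans hB') hsq h0 hZ hE₀ hc
  have hq' : cmS ⊤ (s.im B') ≤ fxS (s.im B') := cmS_le_iff.2 fun x hx w _ => mem_fxS.2 fun y hy => by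
    obtain ⟨g, hg, hL, rfl⟩ := s.mem_im.1 hx
    obtain ⟨g', hg', hL', rfl⟩ := s.mem_im.1 hy
    obtain ⟨e, he, rfl⟩ := s.surj w
    rw [← dl_apply, s.dl_π hL he]
    exact (s.ρ_π_eq_iff hL' (s.commutator_mem hL he)).2
      (hq (commutator_mem_commutator hg' (commutator_mem_commutator hg he)))
  have qh : QH F (s.im B') := ⟨f4, f5, (s.im_mono hB').trans hF.norm, hO, hq'⟩
  have hk : 0 < k := Nat.pos_of_ne_zero fun e => hn fun b hb => by
    have := t.card
    rw [e, pow_zero, card_eq_one] at this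
    exact (h.ρ_eq_one s (hB' (hB hb))).1
      (mem_bot.1 (this ▸ s.ρ_mem_im hb (mem_sup_left (hB' (hB hb)))))
  have h3 : ∀ x ∈ s.im B, x ≠ 1 → 3 ≤ finrank (ZMod 2) (cm ⊤ x) := fun x hx x1 => by
    by_contra hcon
    exact n H E Z B' V s F hH hE h.AH f1 AF hB' hA qh
      (red_faithful hF (s.im_mono hB') fun _ => qh.sq) x ⟨s.im_mono hB hx, x1, by omega⟩
  have := lin_q3 t hO ((cmS_le_iff.2 fun x hx w _ => mem_fxS.2 fun y hy =>
    mem_fxS.1 (cmS_le_iff.1 hq' x (s.im_mono hB hx) w trivial) y (s.im_mono hB hy))) hk h3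
  calc _ ≤ (2 ^ k) ^ 2 := Nat.pow_le_pow_left h1 2
    _ < 2 ^ _ := by rw [← pow_mul]; exact Nat.pow_lt_pow_right (by norm_num) (by omega)
    _ ≤ _ := h2

theorem NoSm.vv (n : NoSm A G) (ho : NoOm A G) (hS : IsSylowIn 2 S G)
    (hG : A ≤ normalizer (G : Set X)) (hA : A ≤ normalizer (S : Set X))
    (hs : Group.IsSolvable (G ⊓ normalizer (thompsonSubgroupOf 2 S : Set X) : Subgroup X)) :
    VV A S (vv G S) := by
  have hx := sx_vv hS hG hA
  have hSL : S ≤ G ⊓ normalizer (thompsonSubgroupOf 2 S : Set X) :=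
    le_inf hS.le (le_normalizer.trans (PLocal.normalizer_le_normalizer_thompsonSubgroupOf S))
  have hVS : Cop.vv G S ≤ S := (vv_le_zJ hS.isPGroup).trans
    ((omegaZ_le _).trans (PLocal.thompsonSubgroupOf_le S))
  have hcz : cz (Cop.vv G S) ⊥ ≤ centralizer (Cop.vv G S : Set X) := fun g hg e he =>
    (commutatorElement_eq_one_iff_mul_comm.1 (mem_bot.1 (hg.2.2 e he))).symm
  have hc : ∀ B : Subgroup X, ⁅B, Cop.vv G S ⊓ centralizer (B : Set X)⁆ ≤ ⊥ := fun B =>
    commutator_le.2 fun b hb e he =>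
      mem_bot.2 (commutatorElement_eq_one_iff_mul_comm.2 (he.2 b hb))
  refine ⟨hVS, normalizer_le_vv (hS.le.trans le_normalizer) le_normalizer, hx.AE,
    fun v hv => mem_bot.1 (hx.sq v hv), fun B hB hsq => ?_, fun B B' hB hB' hA' hq hsq hn => ?_⟩
  · have := hx.q2 ho inf_le_left (hVS.trans hS.le) hs (hB.trans hSL) hsq
      (inf_le_right.trans hcz) bot_le inf_le_left (hc B)
    rwa [inf_relIndex_left] at this
  · have := n.q3 ho hx inf_le_left (hVS.trans hS.le) hs hB (hB'.trans hSL) hA'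
      (commutator_le.2 fun b hb e he =>
        mem_bot.2 (commutatorElement_eq_one_iff_mul_comm.2 (hq he b hb))) hsq
      (fun h => hn (h.trans hcz)) (inf_le_right.trans hcz) bot_le inf_le_left (hc B)
    rwa [inf_relIndex_left] at this

end CfsgLib.Der
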